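import Mathlib
import Cfsg.Agent.Base

/-! Bounded conjugacy classes: elementary counting lemmas and Neumann's bound. -/

set_option autoImplicit false

namespace H68C

open Subgroup
open scoped commutatorElement Pointwise

variable {G : Type*} [Group G]

/-- the size of the conjugacy class -/
noncomputable abbrev cls (g : G) : ℕ := (centralizer ({g} : Set G)).index

theorem idx_eq {D : Type*} [Group D] (f : D →* G) (x : G) :
    ((centralizer ({x} : Set G)).comap f).index = (Set.range fun d => f d * x * (f d)⁻¹).ncard := by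
  let : MulAction D G := MulAction.compHom G ((MulAut.conj : G →* MulAut G).comp f)
  have h := MulAction.index_stabilizer D x
  have e : MulAction.stabilizer D x = (centralizer ({x} : Set G)).comap f := by
    ext d
    rw [MulAction.mem_stabilizer_iff, mem_comap, mem_centralizer_singleton_iff]
    change f d * x * (f d)⁻¹ = x ↔ _
    rw [mul_inv_eq_iff_eq_mul]
  rw [e] at h
  exact h

theorem cls_eq (x : G) : cls x = (Set.range fun d => d * x * d⁻¹).ncard := by
  simpa using idx_eq (MonoidHom.id G) x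

theorem cls_conj (g x : G) : cls (g * x * g⁻¹) = cls x := by
  rw [cls_eq, cls_eq]
  congr 1
  ext y
  constructor
  · rintro ⟨d, rfl⟩
    exact ⟨d * g, by group⟩
  · rintro ⟨d, rfl⟩
    exact ⟨d * g⁻¹, by group⟩

theorem cls_of_central {x : G} (h : ∀ g, g * x = x * g) : cls x = 1 :=
  index_eq_one.2 (eq_top_iff.2 fun g _ => mem_centralizer_singleton_iff.2 (h g))

/-- `M` at small arguments, `1` at big ones -/
def cut (m M p : ℕ) : ℕ := if p ≤ m then M else 1

theorem prod_cut (m M : ℕ) (hM : 1 ≤ M) (S : Finset ℕ) : ∏ p ∈ S, cut m M p ≤ M ^ (m + 1) := by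
  unfold cut
  rw [← Finset.prod_filter, Finset.prod_const]
  refine Nat.pow_le_pow_right hM ?_
  refine (Finset.card_le_card (t := Finset.range (m + 1)) fun p hp => ?_).trans (by simp)
  simpa [Nat.lt_succ_iff] using (Finset.mem_filter.1 hp).2

theorem cut_pow (m M p k : ℕ) : cut m M p ^ k = cut m (M ^ k) p := by
  unfold cut
  split_ifs <;> simp

theorem one_le_cut {m M : ℕ} (hM : 1 ≤ M) (p : ℕ) : 1 ≤ cut m M p := by
  unfold cut
  split_ifs <;> omega

theorem prod_central {ι : Type*} (l : List ι) (f g : ι → G) (h : ∀ i y, y * g i = g i * y) :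
    (l.map fun i => f i * g i).prod = (l.map f).prod * (l.map g).prod := by
  induction l with
  | nil => simp
  | cons a l ih =>
    simp only [List.map_cons, List.prod_cons, ih]
    rw [mul_assoc, mul_assoc, ← mul_assoc (g a), ← h a, mul_assoc]

/-- A nilpotent group whose lower central terms are generated by their intersections with the
`C i` is the product of the `C i`. -/
theorem exists_prod_top {ι : Type*} (l : List ι) (hl : l.Nodup) (hl' : ∀ i, i ∈ l)
    (C : ι → Subgroup G) [Group.IsNilpotent G]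
    (h : ∀ k, (⊤ : Subgroup G).lowerCentralSeries k ≤
      ⨆ i, (⊤ : Subgroup G).lowerCentralSeries k ⊓ C i) (g : G) :
    ∃ c : ι → G, (∀ i, c i ∈ C i) ∧ g = (l.map c).prod := by
  classical
  obtain ⟨n, hn⟩ := Subgroup.nilpotent_iff_lowerCentralSeries.1 ‹Group.IsNilpotent G›
  have key : ∀ k, ∃ c : ι → G, (∀ i, c i ∈ C i) ∧
      ((l.map c).prod)⁻¹ * g ∈ (⊤ : Subgroup G).lowerCentralSeries k := fun k => by
    induction k with
    | zero => exact ⟨1, fun i => one_mem _, mem_top _⟩
    | succ k ih =>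
      obtain ⟨c, hc, hg⟩ := ih
      set N := (⊤ : Subgroup G).lowerCentralSeries k
      set π := QuotientGroup.mk' ((⊤ : Subgroup G).lowerCentralSeries (k + 1))
      have hz : ∀ x ∈ N, ∀ y, y * π x = π x * y := fun x hx y => by
        obtain ⟨y, rfl⟩ := QuotientGroup.mk'_surjective _ y
        have : π ⁅x, y⁆ = 1 := (QuotientGroup.eq_one_iff _).2 (commutator_mem_commutator hx (mem_top y))
        rw [map_commutatorElement, commutatorElement_eq_one_iff_mul_comm] at this
        exact this.symm
      have hd : ∀ x ∈ ⨆ i, N ⊓ C i, ∃ d : ι → G, (∀ i, d i ∈ N ⊓ C i) ∧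
          π x = (l.map fun i => π (d i)).prod := fun x hx => by
        induction hx using iSup_induction' with
        | hp i x hx =>
          refine ⟨Pi.mulSingle i x, fun j => ?_, ?_⟩
          · by_cases e : j = i
            · subst e; simpa using hx
            · rw [Pi.mulSingle_eq_of_ne e]; exact one_mem _
          · rw [List.prod_map_eq_pow_single i _ fun j e _ => by rw [Pi.mulSingle_eq_of_ne e, map_one],
              List.count_eq_one_of_mem hl (hl' i), pow_one, Pi.mulSingle_eq_same]
        | h1 =>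
          refine ⟨1, fun i => one_mem _, (map_one π).trans (List.prod_eq_one fun y hy => ?_).symm⟩
          obtain ⟨i, -, rfl⟩ := List.mem_map.1 hy
          exact map_one π
        | hmul x y _ _ e1 e2 =>
          obtain ⟨d, h1, h2⟩ := e1
          obtain ⟨d', h3, h4⟩ := e2
          refine ⟨d * d', fun i => mul_mem (h1 i) (h3 i), ?_⟩
          simp only [Pi.mul_apply, map_mul]
          rw [prod_central l _ _ fun i => hz _ (h3 i).1, h2, h4]
      obtain ⟨d, h1, h2⟩ := hd _ (h k hg)
      refine ⟨c * d, fun i => mul_mem (hc i) (h1 i).2, (QuotientGroup.eq_one_iff _).1 ?_⟩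
      change π _ = 1
      rw [map_mul, map_inv, map_list_prod, List.map_map, inv_mul_eq_one]
      rw [map_mul, map_inv, map_list_prod, List.map_map, inv_mul_eq_iff_eq_mul] at h2
      rw [h2, ← prod_central l _ _ fun i => hz _ (h1 i).1]
      exact congrArg List.prod (List.map_congr_left fun i _ => map_mul π (c i) (d i))
  obtain ⟨c, hc, hg⟩ := key n
  rw [hn, mem_bot, inv_mul_eq_one] at hg
  exact ⟨c, hc, hg.symm⟩

theorem exists_prod {ι : Type*} (l : List ι) (hl : l.Nodup) (hl' : ∀ i, i ∈ l)
    (C : ι → Subgroup G) (P : Subgroup G) [Group.IsNilpotent P]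
    (h : ∀ k, ∀ M : Subgroup G, (∀ i, P.lowerCentralSeries k ⊓ C i ≤ M) → P.lowerCentralSeries k ≤ M)
    {g : G} (hg : g ∈ P) : ∃ c : ι → G, (∀ i, c i ∈ C i) ∧ g = (l.map c).prod := by
  obtain ⟨c, h1, h2⟩ := exists_prod_top l hl hl' (fun i => (C i).subgroupOf P) (fun k => by
    rw [← map_subtype_le_map_subtype, top_subtype_lowerCentralSeries]
    refine h k _ fun i x hx => ?_
    have h3 := hx.1
    rw [← top_subtype_lowerCentralSeries] at h3
    obtain ⟨y, h4, rfl⟩ := h3
    exact mem_map_of_mem _ (mem_iSup_of_mem i ⟨h4, hx.2⟩)) ⟨g, hg⟩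
  refine ⟨fun i => c i, h1, ?_⟩
  have := congrArg P.subtype h2
  rw [map_list_prod, List.map_map] at this
  exact this

variable [Finite G]

theorem cls_pos (x : G) : 1 ≤ cls x := Nat.pos_of_ne_zero index_ne_zero_of_finite

theorem cls_mul (x y : G) : cls (x * y) ≤ cls x * cls y := by
  refine (index_antitone (H := centralizer {x} ⊓ centralizer {y}) fun g hg => ?_).trans index_inf_le
  have h1 := mem_centralizer_singleton_iff.1 hg.1
  have h2 := mem_centralizer_singleton_iff.1 hg.2
  rw [mem_centralizer_singleton_iff, ← mul_assoc, h1, mul_assoc, h2, mul_assoc]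

theorem cls_list {M : ℕ} (l : List G) (h : ∀ x ∈ l, cls x ≤ M) : cls l.prod ≤ M ^ l.length := by
  induction l with
  | nil => simp [cls_of_central]
  | cons a l ih =>
    rw [List.prod_cons, List.length_cons, pow_succ']
    exact (cls_mul _ _).trans (Nat.mul_le_mul (h a (by simp)) (ih fun x hx => h x (by simp [hx])))

theorem cls_le_prod (F : ℕ → ℕ)
    (h : ∀ p, p.Prime → ∀ g : G, (∃ k, g ^ p ^ k = 1) → cls g ≤ F p) (n : ℕ) :
    n ≠ 0 → ∀ g : G, g ^ n = 1 → cls g ≤ ∏ p ∈ n.primeFactors, F p := by
  induction n using Nat.recOnPosPrimePosCoprime with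
  | prime_pow p k hp hk =>
    intro _ g hg
    rw [Nat.primeFactors_prime_pow hk.ne' hp, Finset.prod_singleton]
    exact h p hp g ⟨k, hg⟩
  | zero => simp
  | one => intro _ g hg; simp only [pow_one] at hg; simp [hg, cls_of_central]
  | coprime a b ha hb hab ia ib =>
    intro _ g hg
    have e := Nat.gcd_eq_gcd_ab a b
    rw [hab.gcd_eq_one] at e
    have hg' : g ^ ((a : ℤ) * b) = 1 := by rw [← Nat.cast_mul, zpow_natCast, hg]
    have e1 : g = g ^ (b * a.gcdB b) * g ^ (a * a.gcdA b) := by
      rw [← zpow_add, add_comm, ← e]; simp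
    rw [hab.primeFactors_mul, Finset.prod_union hab.disjoint_primeFactors, e1]
    refine (cls_mul _ _).trans (Nat.mul_le_mul (ia (by omega) _ ?_) (ib (by omega) _ ?_))
    · rw [← zpow_natCast, ← zpow_mul, show (b * a.gcdB b * a : ℤ) = a * b * a.gcdB b by ring,
        zpow_mul, hg', one_zpow]
    · rw [← zpow_natCast, ← zpow_mul, show (a * a.gcdA b * b : ℤ) = a * b * a.gcdA b by ring,
        zpow_mul, hg', one_zpow]

theorem index_le_prod (H : Subgroup G) (F : ℕ → ℕ)
    (h : ∀ p, p.Prime → ∃ P : Sylow p G, H.relIndex P ≤ F p) :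
    H.index ≤ ∏ p ∈ H.index.primeFactors, F p := by
  have h0 : H.index ≠ 0 := index_ne_zero_of_finite
  conv_lhs => rw [← Nat.prod_factorization_pow_eq_self h0]
  refine Finset.prod_le_prod' fun p hp => ?_
  have hp' : p.Prime := Nat.prime_of_mem_primeFactors hp
  have := Fact.mk hp'
  obtain ⟨P, hP⟩ := h p hp'
  refine (Nat.le_of_dvd (Nat.pos_of_ne_zero index_ne_zero_of_finite) ?_).trans hP
  have h1 : H.index ∣ H.relIndex P * (P : Subgroup G).index := by
    rw [← inf_relIndex_right, relIndex_mul_index inf_le_right]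
    exact index_dvd_of_le inf_le_left
  exact (((Nat.Prime.coprime_iff_not_dvd hp').2 P.not_dvd_index).pow_left _).dvd_of_dvd_mul_right
    ((Nat.ordProj_dvd _ _).trans h1)

/-- B. H. Neumann: bounded classes give boundedly many commutators. -/
theorem card_commutatorSet_le {n : ℕ} (h : ∀ g : G, cls g ≤ n) :
    Nat.card (commutatorSet G) ≤ n ^ (n + 3) := by
  classical
  have := Fintype.ofFinite G
  have hn : 1 ≤ n := (cls_pos 1).trans (h 1)
  let K : G → Finset G := fun x => Finset.univ.image fun d => d * x * d⁻¹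
  have hK : ∀ x, (K x).card = cls x := fun x => by
    rw [cls_eq, ← Set.ncard_coe_finset]; simp [K]
  have mK : ∀ x d, d * x * d⁻¹ ∈ K x := fun x d => Finset.mem_image_of_mem _ (Finset.mem_univ d)
  obtain ⟨a, ha⟩ := Finite.exists_max (fun g : G => cls g)
  have hb : ∀ y : K a, ∃ b, b * a * b⁻¹ = y := fun y => by
    obtain ⟨b, -, e⟩ := Finset.mem_image.1 y.2
    exact ⟨b, e⟩
  choose b hb using hb
  let C : Subgroup G := ⨅ y, centralizer {b y}
  have hC : C.index ≤ n ^ n := (index_iInf_le _).trans <| by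
    refine (Finset.prod_le_pow_card _ _ n fun y _ => h (b y)).trans (Nat.pow_le_pow_right hn ?_)
    simpa [hK] using h a
  have h1 : ∀ x ∈ C, ∀ y, ⁅y, x⁆ ∈ (K a)⁻¹ * K a := fun x hx y => by
    have e : (K a).image (· * x) = K (a * x) := by
      refine Finset.eq_of_subset_of_card_le (fun z hz => ?_) ?_
      · obtain ⟨w, hw, rfl⟩ := Finset.mem_image.1 hz
        have h2 := mem_centralizer_singleton_iff.1 (mem_iInf.1 hx ⟨w, hw⟩)
        have h3 : b ⟨w, hw⟩ * a * (b ⟨w, hw⟩)⁻¹ = w := hb _
        convert mK (a * x) (b ⟨w, hw⟩) using 1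
        generalize b ⟨w, hw⟩ = t at h2 h3
        rw [← h3, mul_assoc t (a * x), mul_assoc a, mul_assoc, mul_assoc]
        congr 2
        rw [inv_mul_eq_iff_eq_mul, ← mul_assoc, ← h2, mul_inv_cancel_right]
      · rw [Finset.card_image_of_injective _ (mul_left_injective x), hK, hK]
        exact ha _
    obtain ⟨w, hw, e'⟩ := Finset.mem_image.1 (e ▸ mK (a * x) y)
    have : ⁅y, x⁆ = (y * a * y⁻¹)⁻¹ * w := by
      rw [eq_inv_mul_iff_mul_eq, ← mul_left_inj x, e', commutatorElement_def]; group
    rw [this]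
    exact Finset.mul_mem_mul (Finset.inv_mem_inv (mK a y)) hw
  have := Fintype.ofFinite (G ⧸ C)
  let U : Finset G := Finset.univ.biUnion fun q : G ⧸ C =>
    (K q.out * ((K a)⁻¹ * K a)).image (· * q.out⁻¹)
  have h2 : commutatorSet G ⊆ U := by
    rintro _ ⟨y, g, rfl⟩
    obtain ⟨x, hx⟩ := QuotientGroup.mk_out_eq_mul C g
    refine Finset.mem_coe.2 (Finset.mem_biUnion.2 ⟨g, Finset.mem_univ _, Finset.mem_image.2
      ⟨_, Finset.mul_mem_mul (mK _ y) (h1 _ (C.inv_mem x.2) y), ?_⟩⟩)
    rw [hx]
    simp only [commutatorElement_def]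
    group
  refine (Set.ncard_le_ncard h2 (Finset.finite_toSet U)).trans ?_
  rw [Set.ncard_coe_finset]
  refine Finset.card_biUnion_le.trans ((Finset.sum_le_card_nsmul _ _ (n ^ 3) fun q _ => ?_).trans ?_)
  · refine Finset.card_image_le.trans (Finset.card_mul_le.trans ?_)
    rw [show n ^ 3 = n * (n * n) by ring]
    refine Nat.mul_le_mul (hK _ ▸ h _) (Finset.card_mul_le.trans ?_)
    rw [Finset.card_inv, hK]
    exact Nat.mul_le_mul (h a) (h a)
  · rw [Finset.card_univ, ← Nat.card_eq_fintype_card, smul_eq_mul, pow_add]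
    exact Nat.mul_le_mul_right _ hC

/-- the bound for the derived subgroup -/
def bnd (n : ℕ) : ℕ := (Finset.range (n ^ (n + 3) + 1)).sup cardCommutatorBound

theorem card_commutator_le {n : ℕ} (h : ∀ g : G, cls g ≤ n) : Nat.card (commutator G) ≤ bnd n :=
  (card_commutator_le_of_finite_commutatorSet G).trans (Finset.le_sup (f := cardCommutatorBound)
    (Finset.mem_range.2 (Nat.lt_succ_of_le (card_commutatorSet_le h))))

end H68C
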