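import Mathlib
import Cfsg.Agent.Base
import Cfsg.Agent.Lib.BFC.A
import Cfsg.Agent.Lib.Core.CoprimeExt
import Cfsg.Agent.Lib.Core.GrpBasic

/-! Coprime abelian action with small commutators between fixed points of cocyclic subgroups. -/

set_option autoImplicit false
set_option linter.unusedSectionVars false

namespace H68C

open Subgroup H2
open scoped commutatorElement Pointwise

variable {A G : Type*} [Group A] [Group G] [Finite A] [Finite G] {φ : A →* MulAut G}

/-- cocyclic subgroups -/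
abbrev Coc (A : Type*) [Group A] := {B : Subgroup A // ∃ a, B ⊔ zpowers a = ⊤}

/-- invariant subgroups -/
def Iv (φ : A →* MulAut G) (K : Subgroup G) : Prop := ∀ a, K ≤ K.comap (φ a).toMonoidHom

theorem Iv.inf {H K : Subgroup G} (h : Iv φ H) (k : Iv φ K) : Iv φ (H ⊓ K) :=
  fun a _ hx => ⟨h a hx.1, k a hx.2⟩

theorem Iv.sup {H K : Subgroup G} (h : Iv φ H) (k : Iv φ K) : Iv φ (H ⊔ K) := fun a =>
  sup_le ((h a).trans (comap_mono le_sup_left)) ((k a).trans (comap_mono le_sup_right))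

theorem Iv.norm {H : Subgroup G} (h : Iv φ H) : Iv φ (normalizer (H : Set G)) := fun a x hx =>
  mem_normalizer_fintype fun y hy => by
    have := h a ((mem_normalizer_iff.1 hx _).1 (h a⁻¹ hy))
    simpa using this

theorem Iv.comm {H K : Subgroup G} (h : Iv φ H) (k : Iv φ K) : Iv φ ⁅H, K⁆ := fun a => by
  rw [← map_le_iff_le_comap, map_commutator]
  exact commutator_mono (map_le_iff_le_comap.2 (h a)) (map_le_iff_le_comap.2 (k a))

theorem Iv.lcs {H : Subgroup G} (h : Iv φ H) (k : ℕ) : Iv φ (H.lowerCentralSeries k) := by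
  induction k with
  | zero => exact h
  | succ k ih => exact ih.comm h

theorem iv_fix (hA : IsMulCommutative A) (B : Subgroup A) : Iv φ (fixSub φ B) := fun a x hx b hb => by
  change φ b (φ a x) = φ a x
  rw [← MulAut.mul_apply, ← map_mul, hA.is_comm.comm, map_mul, MulAut.mul_apply, hx b hb]

theorem gen (hA : IsMulCommutative A) (hc : (Nat.card A).Coprime (Nat.card G)) {K M : Subgroup G}
    (hK : Iv φ K) (h : ∀ B : Coc A, K ⊓ fixSub φ B.1 ≤ M) : K ≤ M :=
  ext_le_of_forall_cocyclic hA (fun a _ hx => hK a hx)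
    (hc.coprime_dvd_right (card_subgroup_dvd_card K)) fun B hB => h ⟨B, hB⟩

theorem rel_ne (H K : Subgroup G) : H.relIndex K ≠ 0 := index_ne_zero_of_finite

theorem idx [Fintype (Coc A)] (hA : IsMulCommutative A) (hc : (Nat.card A).Coprime (Nat.card G))
    {P : Subgroup G} [Group.IsNilpotent P] (hP : Iv φ P) (H : Subgroup G) :
    H ≤ P → Iv φ H → H.relIndex P ≤ ∏ B : Coc A, H.relIndex (P ⊓ fixSub φ B.1) := by
  classical
  induction H using WellFoundedGT.induction with
  | ind H ih =>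
  intro hHP hH
  by_cases e : P ≤ H
  · rw [relIndex_eq_one.2 e]
    exact Finset.one_le_prod' fun B _ => Nat.pos_of_ne_zero (rel_ne _ _)
  have h1 : ¬ P ⊓ normalizer (H : Set G) ≤ H := fun k => by
    have h2 := Group.normalizerCondition_of_isNilpotent (G := P) (H.subgroupOf P)
      (lt_top_iff_ne_top.2 fun k => e (subgroupOf_eq_top.1 k))
    rw [← subgroupOf_normalizer_eq hHP] at h2
    exact h2.not_ge fun x hx => k ⟨x.2, hx⟩
  obtain ⟨B, hB⟩ := not_forall.1 (mt (gen hA hc (hP.inf hH.norm)) h1)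
  set D := P ⊓ normalizer (H : Set G) ⊓ fixSub φ B.1
  have hD : D ⊔ H ≤ P := sup_le (inf_le_left.trans inf_le_left) hHP
  have h3 := ih (D ⊔ H) (lt_of_le_of_ne le_sup_right fun k => hB (k ▸ le_sup_left)) hD
    (((hP.inf hH.norm).inf (iv_fix hA _)).sup hH)
  rw [← relIndex_mul_relIndex H (D ⊔ H) P le_sup_right hD,
    H1.relIndex_sup_of_le_normalizer (inf_le_left.trans inf_le_right)]
  refine (Nat.mul_le_mul_left _ h3).trans ?_
  rw [← Finset.mul_prod_erase _ _ (Finset.mem_univ B), ← Finset.mul_prod_erase _ _ (Finset.mem_univ B),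
    ← mul_assoc]
  refine Nat.mul_le_mul ?_ (Finset.prod_le_prod' fun B' _ =>
    relIndex_le_of_le_left le_sup_right (rel_ne _ _))
  have h4 := relIndex_inf_mul_relIndex H (D ⊔ H) (P ⊓ fixSub φ B.1)
  rw [inf_of_le_left (le_sup_right : H ≤ D ⊔ H)] at h4
  rw [← h4]
  exact Nat.mul_le_mul_right _ (relIndex_le_of_le_right
    (le_inf le_sup_left (inf_le_inf_right _ inf_le_left)) (rel_ne _ _))

/-- the hypothesis -/
def Hyp (φ : A →* MulAut G) (m : ℕ) : Prop := ∀ B B' : Coc A, ∃ T : Subgroup G, Nat.card T ≤ m ∧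
  ∀ x ∈ fixSub φ B.1, ∀ c ∈ fixSub φ B'.1, ⁅c, x⁆ ∈ T

variable {m : ℕ}

theorem Hyp.one_le (h : Hyp φ m) : 1 ≤ m := by
  obtain ⟨T, h1, -⟩ := h ⟨⊤, 1, by simp⟩ ⟨⊤, 1, by simp⟩
  exact Nat.card_pos.trans_le h1

theorem Hyp.small (h : Hyp φ m) {p : ℕ} (hp : p.Prime) {P : Subgroup G} (hP : IsPGroup p P)
    (B B' : Coc A) {x : G} (hx : x ∈ fixSub φ B.1) :
    (centralizer ({x} : Set G)).relIndex (P ⊓ fixSub φ B'.1) ≤ cut m m p := by
  have := Fact.mk hp
  obtain ⟨T, h1, h2⟩ := h B B'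
  have h3 : (centralizer ({x} : Set G)).relIndex (P ⊓ fixSub φ B'.1) ≤ m := by
    refine (idx_eq (P ⊓ fixSub φ B'.1).subtype x).trans_le (le_trans ?_ h1)
    refine Set.ncard_le_ncard_of_injOn (· * x⁻¹) (t := (T : Set G)) ?_ (mul_left_injective _).injOn
    rintro _ ⟨c, rfl⟩
    exact h2 x hx c c.2.2
  unfold cut
  split_ifs with k
  · exact h3
  obtain ⟨n, hn⟩ := (hP.to_le (inf_le_left : P ⊓ fixSub φ B'.1 ≤ P)).index
    ((centralizer ({x} : Set G)).subgroupOf _)
  rw [relIndex, hn] at h3 ⊢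
  rcases n with _ | n
  · simp
  · have := Nat.le_self_pow (n := n + 1) (by omega) p
    omega

theorem card_coc : Nat.card (Coc A) ≤ 2 ^ Nat.card A := by
  have e : Nat.card (Set A) = 2 ^ Nat.card A := by
    have := Fintype.ofFinite A
    rw [Nat.card_eq_fintype_card, Nat.card_eq_fintype_card, Fintype.card_set]
  rw [← e]
  exact Nat.card_le_card_of_injective (fun B : Coc A => (B.1 : Set A))
    fun B B' e => Subtype.ext (SetLike.coe_injective e)

theorem Hyp.rel (h : Hyp φ m) (hA : IsMulCommutative A) (hc : (Nat.card A).Coprime (Nat.card G))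
    {p : ℕ} (hp : p.Prime) {P : Subgroup G} (hP : IsPGroup p P) (hP' : Iv φ P) (B : Coc A) {x : G}
    (hx : x ∈ fixSub φ B.1) : (centralizer ({x} : Set G)).relIndex P ≤
      cut m ((m ^ Nat.card A) ^ 2 ^ Nat.card A) p := by
  have := Fact.mk hp
  have := hP.isNilpotent
  have := Fintype.ofFinite A
  have := Fintype.ofFinite (Coc A)
  let H : Subgroup G := ⨅ a, centralizer {φ a x}
  have hH : Iv φ H := fun a y hy => mem_iInf.2 fun b => by
    have := congrArg (φ a) (mem_centralizer_singleton_iff.1 (mem_iInf.1 hy (a⁻¹ * b)))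
    rw [mem_centralizer_singleton_iff]
    simpa using this
  have h1 : H ⊓ P ≤ centralizer {x} := inf_le_left.trans ((iInf_le _ 1).trans (by simp))
  refine (relIndex_le_of_le_left h1 (rel_ne _ _)).trans
    ((idx hA hc hP' _ inf_le_right (hH.inf hP')).trans ?_)
  rw [← cut_pow, ← cut_pow]
  refine (Finset.prod_le_pow_card _ _ (cut m m p ^ Nat.card A) fun B' _ => ?_).trans
    (Nat.pow_le_pow_right (Nat.one_le_pow _ _ (one_le_cut h.one_le p)) ?_)
  · rw [← inf_relIndex_right, inf_assoc, ← inf_assoc P, inf_idem, inf_relIndex_right]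
    refine (relIndex_iInf_le _).trans ((Finset.prod_le_pow_card _ _ _ fun a _ =>
      h.small hp hP B B' (iv_fix hA _ a hx)).trans ?_)
    rw [Finset.card_univ, Nat.card_eq_fintype_card]
  · rw [Finset.card_univ, ← Nat.card_eq_fintype_card]
    exact card_coc

/-- the bound on the class sizes -/
def big (N m : ℕ) : ℕ := ((((m ^ N) ^ 2 ^ N) ^ (m + 1)) ^ 2 ^ N) ^ (m + 1)

theorem Hyp.cls_le (h : Hyp φ m) (hA : IsMulCommutative A) (hc : (Nat.card A).Coprime (Nat.card G))
    (g : G) : cls g ≤ big (Nat.card A) m := by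
  have hs : ∀ p, p.Prime → ∃ P : Sylow p G, Iv φ P := fun p hp => by
    have := Fact.mk hp
    obtain ⟨P, hP⟩ := ext_exists_invariant_sylow (φ := φ) hc
      (Or.inl (Group.isSolvable_of_comm hA.is_comm.comm)) p
    exact ⟨P, fun a x hx => hP a x hx⟩
  set M0 := (m ^ Nat.card A) ^ 2 ^ Nat.card A
  have h0 : 1 ≤ M0 := Nat.one_le_pow _ _ (Nat.one_le_pow _ _ h.one_le)
  have h0' : 1 ≤ M0 ^ (m + 1) := Nat.one_le_pow _ _ h0
  have h1 : ∀ B : Coc A, ∀ x ∈ fixSub φ B.1, cls x ≤ M0 ^ (m + 1) := fun B x hx =>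
    (index_le_prod _ (cut m M0) fun p hp => (hs p hp).imp fun P hP =>
      h.rel hA hc hp P.isPGroup' hP B hx).trans (prod_cut _ _ h0 _)
  refine (cls_le_prod (cut m ((M0 ^ (m + 1)) ^ 2 ^ Nat.card A)) (fun p hp x hx => ?_) (Nat.card G)
    Nat.card_pos.ne' g pow_card_eq_one').trans (prod_cut _ _ (Nat.one_le_pow _ _ h0') _)
  have := Fact.mk hp
  obtain ⟨P, hP⟩ := hs p hp
  obtain ⟨k, hk⟩ : ∃ k : G, k * x * k⁻¹ ∈ P := by
    obtain ⟨n, hn⟩ := hx
    obtain ⟨Q, hQ⟩ := IsPGroup.exists_le_sylow (p := p) (P := zpowers x) fun y => ⟨n, by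
      obtain ⟨_, i, rfl⟩ := y
      exact Subtype.ext (by
        change (x ^ i) ^ p ^ n = 1
        rw [← zpow_natCast, ← zpow_mul, mul_comm, zpow_mul, zpow_natCast, hn, one_zpow])⟩
    obtain ⟨k, rfl⟩ := MulAction.exists_smul_eq G Q P
    exact ⟨k, smul_mem_pointwise_smul x (MulAut.conj k) _ (hQ (mem_zpowers x))⟩
  rw [← cls_conj k]
  generalize k * x * k⁻¹ = y at hk
  unfold cut
  split_ifs with e
  · have := Fintype.ofFinite (Coc A)
    have := P.isPGroup'.isNilpotent
    obtain ⟨c, h2, rfl⟩ := exists_prod (Finset.univ : Finset (Coc A)).toList (Finset.nodup_toList _)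
      (by simp) (fun B => fixSub φ B.1) P (fun k M => gen hA hc (hP.lcs k)) hk
    refine (cls_list (M := M0 ^ (m + 1)) _ fun z hz => ?_).trans (Nat.pow_le_pow_right h0' ?_)
    · obtain ⟨B, -, rfl⟩ := List.mem_map.1 hz
      exact h1 B _ (h2 B)
    · rw [List.length_map, Finset.length_toList, Finset.card_univ, ← Nat.card_eq_fintype_card]
      exact card_coc
  · refine (index_eq_one.2 (eq_top_iff.2 (gen (φ := φ) hA hc (fun _ => le_top) fun B z hz => ?_))).le
    have h2 := h.rel hA hc hp P.isPGroup' hP B hz.2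
    rw [cut, if_neg e] at h2
    have h3 := relIndex_eq_one.1 (le_antisymm h2 (Nat.pos_of_ne_zero (rel_ne _ _))) hk
    exact mem_centralizer_singleton_iff.2 (mem_centralizer_singleton_iff.1 h3).symm

theorem index_coc {q : ℕ} (hq : 0 < q) (hA : IsMulCommutative A) (h : ∀ a : A, a ^ q = 1)
    (B : Coc A) : B.1.index ≤ q := by
  obtain ⟨B, a, ha⟩ := B
  have : B.Normal := ⟨fun x hx g => by rwa [hA.is_comm.comm g, mul_inv_cancel_right]⟩
  change B.index ≤ q
  rw [← relIndex_top_right, ← ha, relIndex_sup_left]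
  refine (Nat.le_of_dvd Nat.card_pos (relIndex_dvd_card _ _)).trans ?_
  rw [Nat.card_zpowers]
  exact orderOf_le_of_pow_eq_one hq (h a)

theorem exists_mem_coc {q : ℕ} (hq : 1 < q) (hA : IsMulCommutative A) (h : ∀ a : A, a ^ q = 1)
    (h3 : Nat.card A = q ^ 3) (B B' : Coc A) : ∃ a, a ≠ 1 ∧ a ∈ B.1 ∧ a ∈ B'.1 := by
  by_contra k
  have e : B.1 ⊓ B'.1 = ⊥ := eq_bot_iff.2 fun a ha => by
    by_contra k'
    exact k ⟨a, k', ha.1, ha.2⟩
  have h1 := (index_inf_le (H := B.1) (K := B'.1)).trans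
    (Nat.mul_le_mul (index_coc (by omega) hA h B) (index_coc (by omega) hA h B'))
  rw [e, index_bot, h3, ← pow_two, Nat.pow_le_pow_iff_right hq] at h1
  omega

end H68C
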